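import Cfsg.Agent.H6.Exist
import Cfsg.Agent.H6.Dickson
import Cfsg.Agent.H6.Applications
import Cfsg.Agent.H19.Cores
import Cfsg.Agent.H7.RedundantSylow
import Cfsg.Prelude.Def_OddOrderLocal

/-!
Hall `{2,3}`-subgroups of `PSL₂(q)`.
-/

set_option autoImplicit false
set_option linter.style.haveILetI false

namespace Cfsg.Agent.H7

open scoped MatrixGroups

section general

variable {G : Type*} [Group G]

/-- A number whose prime divisors are `2` and `3` is prime to any number prime to six. -/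
theorem coprime_of_two_three {m n : ℕ} (hm : ∀ r : ℕ, r.Prime → r ∣ m → r ∈ ({2, 3} : Set ℕ))
    (h2 : ¬ 2 ∣ n) (h3 : ¬ 3 ∣ n) : m.Coprime n := by
  refine Nat.coprime_of_dvd fun r hr hrm hrn => ?_
  rcases hm r hr hrm with rfl | rfl
  · exact h2 hrn
  · exact h3 hrn

theorem two_three_of_prime_dvd {a b r : ℕ} (hr : r.Prime) (h : r ∣ 2 ^ a * 3 ^ b) :
    r ∈ ({2, 3} : Set ℕ) := by
  rcases hr.dvd_mul.1 h with h | h
  · exact Or.inl ((Nat.prime_dvd_prime_iff_eq hr Nat.prime_two).1 (hr.dvd_of_dvd_pow h))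
  · exact Or.inr ((Nat.prime_dvd_prime_iff_eq hr Nat.prime_three).1 (hr.dvd_of_dvd_pow h))

/-- A cyclic subgroup and an involution inverting it: subgroups of every order `2 d`. -/
theorem exists_card_two_mul [Finite G] {T : Subgroup G} [IsCyclic T] {w : G} (hw : w ∉ T) (hw2 : w * w = 1)
    (hinv : ∀ y ∈ T, w * y * w⁻¹ = y⁻¹) {d : ℕ} (hd : d ∣ Nat.card T) :
    ∃ K : Subgroup G, Nat.card K = 2 * d := by
  obtain ⟨c, hc⟩ := IsCyclic.exists_ofOrder_eq_natCard (α := T)
  have hd0 : d ≠ 0 := fun e => Nat.card_pos.ne' (Nat.eq_zero_of_zero_dvd (e ▸ hd))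
  set y : G := (c : G) ^ (Nat.card T / d) with hy
  have hyo : orderOf y = d := by
    rw [hy, orderOf_pow_of_dvd, Subgroup.orderOf_coe, hc, Nat.div_div_self hd Nat.card_pos.ne']
    · exact Nat.div_ne_zero_iff.2 ⟨hd0, Nat.le_of_dvd Nat.card_pos hd⟩
    · rw [Subgroup.orderOf_coe, hc]; exact Nat.div_dvd_of_dvd hd
  have hyT : y ∈ T := pow_mem c.2 _
  set C := Subgroup.zpowers y with hC
  set W := Subgroup.zpowers w with hW
  have hwne : w ≠ 1 := fun e => hw (e ▸ one_mem T)
  have hCc : Nat.card C = d := (Nat.card_zpowers y).trans hyo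
  have hWc : Nat.card W = 2 := by
    rw [hW, Nat.card_zpowers]
    exact orderOf_eq_prime (by rw [pow_two, hw2]) hwne
  have hWn : W ≤ Subgroup.normalizer (C : Set G) := by
    rw [hW, Subgroup.zpowers_le, Subgroup.mem_normalizer_iff]
    intro b
    have hwi : w⁻¹ = w := inv_eq_of_mul_eq_one_right hw2
    have hm : ∀ b ∈ C, w * b * w⁻¹ ∈ C := fun b hb => by
      rw [hinv b ((Subgroup.zpowers_le.2 hyT) hb)]; exact inv_mem hb
    refine ⟨hm b, fun h => ?_⟩
    have := hm _ h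
    rwa [hwi, show w * (w * b * w) * w = (w * w) * b * (w * w) by group, hw2, one_mul, mul_one] at this
  refine ⟨C ⊔ W, ?_⟩
  obtain ⟨j, hj⟩ := Subgroup.card_dvd_of_le (le_sup_left : C ≤ C ⊔ W)
  have h2 : Nat.card (C ⊔ W : Subgroup G) ∣ Nat.card C * Nat.card W := by
    haveI : (C.subgroupOf (C ⊔ W)).Normal :=
      (Subgroup.normal_subgroupOf_iff_le_normalizer le_sup_left).2 (sup_le Subgroup.le_normalizer hWn)
    have h1 := H19.card_sup_dvd (C.subgroupOf (C ⊔ W)) (W.subgroupOf (C ⊔ W))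
    rwa [← Subgroup.subgroupOf_sup le_sup_left le_sup_right, Subgroup.subgroupOf_self, Subgroup.card_top,
      Nat.card_congr (Subgroup.subgroupOfEquivOfLe (le_sup_left : C ≤ C ⊔ W)).toEquiv,
      Nat.card_congr (Subgroup.subgroupOfEquivOfLe (le_sup_right : W ≤ C ⊔ W)).toEquiv] at h1
  rw [hCc, hWc, hj, hCc] at h2
  have hj2 : j ∣ 2 := Nat.dvd_of_mul_dvd_mul_left (Nat.pos_of_ne_zero hd0) h2
  rcases (Nat.dvd_prime Nat.prime_two).1 hj2 with rfl | rfl
  · exfalso
    have e : C = C ⊔ W := Subgroup.eq_of_le_of_card_ge le_sup_left (by rw [hj, mul_one])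
    refine hw ((Subgroup.zpowers_le.2 hyT) ?_)
    show w ∈ C
    rw [e]
    exact Subgroup.mem_sup_right (Subgroup.mem_zpowers w)
  · rw [hj, hCc, mul_comm]

end general

variable {F : Type*} [Field F] [Fintype F] {p : ℕ} [hp : Fact p.Prime] [CharP F p] {q : ℕ}

/-- The Hall `{2,3}`-subgroups of `PSL₂(q)`. -/
theorem psl2_hall_two_three_iff (hp5 : 5 ≤ p) (hq : Fintype.card F = q) :
    (∃ H : Subgroup PSL(2, F), Cfsg.IsPiHall ({2, 3} : Set ℕ) H) ↔
      (3 ∣ q - 1 ∧ q % 4 = 1) ∨ (3 ∣ q + 1 ∧ q % 4 = 3) ∨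
        2 ^ (q ^ 2 - 1).factorization 2 * 3 ^ (q ^ 2 - 1).factorization 3 = 24 ∨
        2 ^ (q ^ 2 - 1).factorization 2 * 3 ^ (q ^ 2 - 1).factorization 3 = 48 := by
  haveI : Fact (Nat.Prime 2) := ⟨Nat.prime_two⟩
  have hq1 : 1 < q := hq ▸ Fintype.one_lt_card
  obtain ⟨f, -, hf⟩ := FiniteField.card F p
  have hqp : q = p ^ (f : ℕ) := hq.symm.trans hf
  have hq3 : ¬ 3 ∣ q := fun h => by
    have := (Nat.prime_dvd_prime_iff_eq Nat.prime_three hp.out).1 (Nat.prime_three.dvd_of_dvd_pow (hqp ▸ h))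
    omega
  have hq2 : ¬ 2 ∣ q := fun h => by
    have := (Nat.prime_dvd_prime_iff_eq Nat.prime_two hp.out).1 (Nat.prime_two.dvd_of_dvd_pow (hqp ▸ h))
    omega
  have h2 : (2 : F) ≠ 0 := by
    intro h
    have : p ∣ 2 := (CharP.cast_eq_zero_iff F p 2).1 (by exact_mod_cast h)
    have := Nat.le_of_dvd two_pos this
    omega
  have hsq : q ^ 2 - 1 = (q + 1) * (q - 1) := by rw [← Nat.sq_sub_sq, one_pow]
  set n := q ^ 2 - 1 with hn
  have hn0 : n ≠ 0 := by rw [hsq]; exact mul_ne_zero (by omega) (by omega)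
  set a := n.factorization 2 with ha
  set b := n.factorization 3 with hb
  set N := 2 ^ a * 3 ^ b with hN
  have h8 : 8 ∣ n := by
    rw [hn]
    have : q % 8 = 1 ∨ q % 8 = 3 ∨ q % 8 = 5 ∨ q % 8 = 7 := by omega
    have e : q ^ 2 % 8 = 1 := by rw [Nat.pow_mod]; rcases this with e | e | e | e <;> rw [e]
    omega
  have h3 : 3 ∣ n := by
    rw [hn]
    have : q % 3 = 1 ∨ q % 3 = 2 := by omega
    have e : q ^ 2 % 3 = 1 := by rw [Nat.pow_mod]; rcases this with e | e <;> rw [e]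
    omega
  have ha3 : 3 ≤ a := (Nat.prime_two.pow_dvd_iff_le_factorization hn0).1 h8
  have hb1 : 1 ≤ b := (Nat.prime_three.pow_dvd_iff_le_factorization hn0).1 (by rwa [pow_one])
  have hNn : N ∣ n :=
    Nat.Coprime.mul_dvd_of_dvd_of_dvd (Nat.Coprime.pow _ _ (by norm_num)) (Nat.ordProj_dvd n 2)
      (Nat.ordProj_dvd n 3)
  obtain ⟨R, hR⟩ := hNn
  have hR2 : ¬ 2 ∣ R := by
    rintro ⟨k, rfl⟩
    have : 2 ^ (a + 1) ∣ n := ⟨3 ^ b * k, by rw [hR, hN]; ring⟩
    have := (Nat.prime_two.pow_dvd_iff_le_factorization hn0).1 this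
    omega
  have hR3 : ¬ 3 ∣ R := by
    rintro ⟨k, rfl⟩
    have : 3 ^ (b + 1) ∣ n := ⟨2 ^ a * k, by rw [hR, hN]; ring⟩
    have := (Nat.prime_three.pow_dvd_iff_le_factorization hn0).1 this
    omega
  have hN12 : 24 ∣ N := by
    rw [hN, show 24 = 2 ^ 3 * 3 ^ 1 by norm_num]
    exact mul_dvd_mul (pow_dvd_pow 2 ha3) (pow_dvd_pow 3 hb1)
  have hNs : ∀ r : ℕ, r.Prime → r ∣ N → r ∈ ({2, 3} : Set ℕ) := fun r hr h => two_three_of_prime_dvd hr h
  have hG : 2 * Nat.card PSL(2, F) = q * R * N := by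
    rw [H6.card_psl2_odd h2 hq, ← hn, hR]; ring
  have hqR2 : ¬ 2 ∣ q * R := fun h => (Nat.prime_two.dvd_mul.1 h).elim hq2 hR2
  have hqR3 : ¬ 3 ∣ q * R := fun h => (Nat.prime_three.dvd_mul.1 h).elim hq3 hR3
  have hhall : ∀ H : Subgroup PSL(2, F),
      Cfsg.IsPiHall ({2, 3} : Set ℕ) H ↔ 2 * Nat.card H = N := by
    intro H
    have hci := H.card_mul_index
    constructor
    · rintro ⟨hH, hi⟩
      have hs : ∀ r : ℕ, r.Prime → r ∣ 2 * Nat.card H → r ∈ ({2, 3} : Set ℕ) := fun r hr h => by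
        rcases hr.dvd_mul.1 h with h | h
        · exact Or.inl ((Nat.prime_dvd_prime_iff_eq hr Nat.prime_two).1 h)
        · exact hH r hr h
      refine Nat.dvd_antisymm ?_ ?_
      · exact (coprime_of_two_three hs hqR2 hqR3).dvd_of_dvd_mul_left
          ⟨H.index, by rw [← hG, ← hci, mul_assoc]⟩
      · exact (coprime_of_two_three hNs (hi 2 Nat.prime_two (by simp))
          (hi 3 Nat.prime_three (by simp))).dvd_of_dvd_mul_right
          ⟨q * R, by rw [mul_assoc, hci, hG, mul_comm]⟩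
    · intro h
      have hidx : H.index = q * R := by
        refine Nat.eq_of_mul_eq_mul_left (show 0 < 2 * Nat.card H from Nat.mul_pos two_pos Nat.card_pos) ?_
        rw [mul_assoc 2, hci, hG, h, mul_comm]
      refine ⟨fun r hr hrH => hNs r hr (h ▸ hrH.mul_left 2), fun r hr hr23 => ?_⟩
      rw [hidx]
      rcases hr23 with rfl | rfl
      · exact hqR2
      · exact hqR3
  -- the torus of an element of trace zero
  obtain ⟨g, ht, h4⟩ := exists_four_dvd_cent (F := F) h2
  set c := Nat.card (H6.cent g) with hc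
  have hcv : (q % 4 = 1 ∧ c = q - 1) ∨ (q % 4 = 3 ∧ c = q + 1) := by
    rcases H6.card_cent_ss ht with ⟨-, e⟩ | ⟨-, e⟩ <;> rw [← hc, hq] at e <;> omega
  have hc3 : (3 ∣ q - 1 ∧ q % 4 = 1) ∨ (3 ∣ q + 1 ∧ q % 4 = 3) ↔ 3 ∣ c := by
    rcases hcv with ⟨e, e'⟩ | ⟨e, e'⟩ <;> omega
  have hgcd : Nat.gcd 2 (q - 1) = 2 := Nat.gcd_eq_left (by omega)
  have htor : ∀ g' : SL(2, F), Nat.card (H6.tor g') * 2 = Nat.card (H6.cent g') := by
    intro g'
    rw [← H6.card_tor_mul hq g', hgcd]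
  rw [← or_assoc, hc3]
  constructor
  · rintro ⟨H, hH⟩
    have hHN := (hhall H).1 hH
    obtain ⟨j, hj⟩ : 12 ∣ Nat.card H := by
      obtain ⟨j, hj⟩ := hN12
      exact ⟨j, by omega⟩
    obtain ⟨c', hc'⟩ := H6.exists_outcome p H
    have hcard : Nat.card (H6.cj c' H) = Nat.card H := H6.card_cj c' H
    have hcopq : (Nat.card H).Coprime q := coprime_of_two_three hH.1 hq2 hq3
    rcases hc' with h | ⟨g', ht', hle⟩ | ⟨d, hle⟩ | ⟨h, -⟩ | ⟨h, -, -⟩ | ⟨h, -, -⟩ | ⟨r, k, hgen⟩
    · omega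
    · left
      have hd := Subgroup.card_dvd_of_le hle
      rw [hcard, H6.card_torDih ht', mul_comm, htor] at hd
      have h4' : 4 ∣ Nat.card (H6.cent g') := (Dvd.intro (3 * j) (by omega)).trans hd
      rw [hc, cent_card_eq h2 ht ht' h4 h4']
      exact (Dvd.intro (4 * j) (by omega)).trans hd
    · left
      have hd := Subgroup.card_dvd_of_le hle
      rw [H6.card_cj, hcard] at hd
      have hb' := H6.card_borel_mul (F := F) hq
      rw [hgcd] at hb'
      have h42 : Nat.card H * 2 ∣ q - 1 := by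
        refine (coprime_of_two_three (fun r hr h => ?_) hq2 hq3).dvd_of_dvd_mul_left
          ((mul_dvd_mul_right hd 2).trans hb'.dvd)
        rcases hr.dvd_mul.1 h with h | h
        · exact hH.1 r hr h
        · exact Or.inl ((Nat.prime_dvd_prime_iff_eq hr Nat.prime_two).1 h)
      rw [hj] at h42
      have : 24 ∣ q - 1 := (Dvd.intro j (by ring)).trans h42
      omega
    · right; left; omega
    · right; right; omega
    · exfalso
      have h60 : 5 ∣ Nat.card H := by omega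
      have := hH.1 5 Nat.prime_five h60
      simp at this
    · exfalso
      obtain ⟨hU, hr, -, hk, hrk, hcr, -, -⟩ := hgen
      have hrq : r ∣ q := by
        rw [← hr, H6.mH, ← hq, ← H6.card_Uinf]
        exact Subgroup.card_dvd_of_le inf_le_left
      obtain ⟨i, -, hi⟩ := (Nat.dvd_prime_pow hp.out).1 (hqp ▸ hrq)
      have hi0 : i ≠ 0 := fun e => by rw [e, pow_zero] at hi; omega
      have hpH : p ∣ Nat.card H := by
        rw [← hcard, hcr, hi]
        exact ((dvd_pow_self p hi0).mul_right k).mul_left _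
      have := hH.1 p hp.out hpH
      rcases this with e | e
      · exact absurd e (by omega)
      · exact absurd (Set.mem_singleton_iff.1 e) (by omega)
  · intro h
    simp only [hhall]
    rcases h with h | h | h
    · -- inside the torus normaliser
      have hNc : N ∣ 2 * c := by
        obtain ⟨m, hm, hm2, hm3⟩ : ∃ m, n = 2 * c * m ∧ ¬ 2 ∣ m ∧ ¬ 3 ∣ m := by
          rcases hcv with ⟨e, e'⟩ | ⟨e, e'⟩
          · refine ⟨(q + 1) / 2, ?_, by omega, by omega⟩
            rw [hsq, e', mul_comm 2, mul_assoc, mul_comm]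
            congr 1
            omega
          · refine ⟨(q - 1) / 2, ?_, by omega, by omega⟩
            rw [hsq, e', mul_comm 2, mul_assoc]
            congr 1
            omega
        exact (coprime_of_two_three hNs hm2 hm3).dvd_of_dvd_mul_right ⟨R, hm.symm.trans hR⟩
      obtain ⟨d, hd⟩ : 4 ∣ N := (by norm_num : (4 : ℕ) ∣ 24).trans hN12
      have hdT : d ∣ Nat.card (H6.tor g) := by
        have := htor g
        refine Nat.dvd_of_mul_dvd_mul_left (show 0 < 4 by norm_num) ?_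
        rw [← hd, show 4 * Nat.card (H6.tor g) = 2 * c by omega]
        exact hNc
      haveI := H6.tor_cyclic ht
      obtain ⟨w, hw⟩ := H6.exists_conj_inv ht
      have hwN : H6.π w ∈ H6.torDih g := Subgroup.mem_map_of_mem _ ((H6.mem_torNorm ht).2 (Or.inr hw))
      have hwT : H6.π w ∉ H6.tor g := fun h => by
        have := H6.conj_eq_self_iff.2 (H6.mem_tor.1 h)
        rw [hw] at this
        exact H6.inv_ne_self_of_ss ht this
      obtain ⟨h1, -, h3'⟩ := H6.outside_torDih ht hwN hwT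
      obtain ⟨K, hK⟩ := exists_card_two_mul hwT h1 h3' hdT
      exact ⟨K, by omega⟩
    · obtain ⟨H, ⟨e⟩⟩ := H6.exists_alt_four_odd hq h2
      refine ⟨H, ?_⟩
      have h12 : Nat.card H = 12 := by
        rw [Nat.card_congr e.toEquiv, nat_card_alternatingGroup, Nat.card_eq_fintype_card,
          Fintype.card_fin]
        rfl
      omega
    · have h16 : 16 ∣ n := ⟨3 * R, by rw [hR, h]; ring⟩
      have h8' : q % 8 = 1 ∨ q % 8 = 7 := by
        have hq16 : q ^ 2 % 16 = 1 := by omega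
        have : q % 16 < 16 := Nat.mod_lt _ (by norm_num)
        rw [Nat.pow_mod] at hq16
        have hq16' : q % 8 = q % 16 % 8 := by omega
        rw [hq16']
        interval_cases q % 16 <;> omega
      obtain ⟨V, hV⟩ := H6.exists_four (F := F) h2
      exact ⟨_, by rw [H6.card_normalizer_four_one h2 hq h8' hV]; omega⟩

end Cfsg.Agent.H7
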