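import Cfsg.Agent.H7.ZassKernel
import Cfsg.Agent.H7.ZassEven
import Cfsg.Agent.H21.Complement

/-!
An abelian two-point stabiliser of a Zassenhaus group is cyclic; in the even half case it is abelian.
-/

set_option autoImplicit false
set_option linter.style.haveILetI false

namespace Cfsg.Agent.H7

open MulAction

variable {G Ω : Type*} [Group G] [MulAction G Ω] [Fintype Ω] {a b : Ω}

theorem ZHyp.isCyclic_of_comm (Z : ZHyp G Ω) (hab : a ≠ b)
    (hcomm : ∀ h ∈ stabilizer G a ⊓ stabilizer G b, ∀ k ∈ stabilizer G a ⊓ stabilizer G b, h * k = k * h) :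
    IsCyclic ↥(stabilizer G a ⊓ stabilizer G b) := by
  haveI := Z.finite
  obtain ⟨U, K, -⟩ := Z.exists_ZK hab
  haveI : Nontrivial U := by
    obtain ⟨c, hca, hcb⟩ := Z.exists_move hab
    obtain ⟨u, hu, e⟩ := K.reach hca
    exact ⟨⟨⟨u, hu⟩, 1, fun e' => hcb (by rw [← e, show u = 1 from congrArg Subtype.val e', one_smul])⟩⟩
  haveI : IsMulCommutative ↥(stabilizer G a ⊓ stabilizer G b) :=
    ⟨⟨fun h k => Subtype.ext (hcomm h.1 h.2 k.1 k.2)⟩⟩
  exact H21.isCyclic_of_comm_fpf (H21.conjHom K.le_normalizer) K.conjHom_fpf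

/-- In the even case with `n - 1 = 2 d` every swapping element inverts the two-point stabiliser. -/
theorem ZHyp.even_half_inverts (Z : ZHyp G Ω) (hab : a ≠ b)
    (heven : Even (Nat.card ↥(stabilizer G a ⊓ stabilizer G b)))
    (hcard : Fintype.card Ω = 2 * Nat.card ↥(stabilizer G a ⊓ stabilizer G b) + 2) {t : G}
    (ta : t • a = b) (tb : t • b = a) :
    (∀ h ∈ stabilizer G a ⊓ stabilizer G b, t * h * t⁻¹ = h⁻¹) ∧
      ∀ h ∈ stabilizer G a ⊓ stabilizer G b, ∀ k ∈ stabilizer G a ⊓ stabilizer G b, h * k = k * h := by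
  have hh := fun {g : G} (ga : g • a = b) (gb : g • b = a) => Z.even_half hab heven hcard ga gb
  have tt := (hh ta tb).1
  have ti : t⁻¹ = t := inv_eq_of_mul_eq_one_right tt
  have ht : ∀ h ∈ stabilizer G a ⊓ stabilizer G b, t * h * t = h⁻¹ := by
    intro h hm
    have h2 := (hh (g := t * h) (by rw [mul_smul, show h • a = a from hm.1, ta])
      (by rw [mul_smul, show h • b = b from hm.2, tb])).1
    exact eq_inv_of_mul_eq_one_left (by rw [← h2]; group)
  refine ⟨fun h hm => by rw [ti]; exact ht h hm, fun h hm k km => ?_⟩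
  have h3 : t * (h * k) * t = (t * h * t) * (t * k * t) := by
    rw [show (t * h * t) * (t * k * t) = t * h * (t * t) * k * t by group, tt]; group
  rw [ht _ (mul_mem hm km), ht h hm, ht k km, ← mul_inv_rev] at h3
  exact inv_injective h3

end Cfsg.Agent.H7
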